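import Cfsg.Agent.Lib.SchurMult.G2Three.Data

/-!
Checks on the tables of the threefold cover of `G₂(3)`: permutations, the central element, (R1).
-/

set_option autoImplicit false
set_option maxHeartbeats 0
set_option maxRecDepth 100000

namespace CfsgLib.SchurMult.GTwoThree

/-- Permutations and centre. -/
noncomputable def baseOK : Bool :=
  ((List.range 13).all fun k =>
    tables.sameWord [2 * k, 2 * k + 1] [] && tables.sameWord [2 * k + 1, 2 * k] [] &&
      CfsgLib.SporRecognition.CosetCert.allBelow 11 1053 (fun u =>
        Nat.blt (tables.img (2 * k) u) 1053 && Nat.blt (tables.img (2 * k + 1) u) 1053)) &&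
    ((List.range 24).all fun i => tables.sameWord [24, i] [i, 24]) &&
    tables.sameWord [24, 24, 24] [] && !Nat.beq (tables.img 24 0) 0 &&
    tables.sameWord [12, 18, 13, 19] (List.replicate 2 24)

theorem baseOK_eq : baseOK = true := by decide +kernel

/-- (R1). -/
noncomputable def addOK : Bool :=
  (List.range 12).all fun r => (List.range 3).all fun n => (List.range 3).all fun m =>
    tables.sameWord (letter r n ++ letter r m) (letter r (n + m))

theorem addOK_eq : addOK = true := by decide +kernel

/-- (R2) at one root. -/
noncomputable def commOK (r : ℕ) : Bool :=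
  (List.range 12).all fun s => Nat.beq s r || Nat.beq s (Cfsg.Lie.chevG2.neg r) ||
    (List.range 3).all fun n => (List.range 3).all fun m =>
      tables.sameWord (lhs r s n m) (rhs r s n m ++ List.replicate (relTwist r s n m) 24)

end CfsgLib.SchurMult.GTwoThree
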