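import Cfsg.Agent.Lib.SchurMult.G2Three.Cert

/-!
The commutator relations in the threefold cover of `G₂(3)`, roots 3 to 5.
-/

set_option autoImplicit false
set_option maxHeartbeats 0
set_option maxRecDepth 100000

namespace CfsgLib.SchurMult.GTwoThree

theorem commOKB : commOK 3 = true ∧ commOK 4 = true ∧ commOK 5 = true :=
  ⟨by decide +kernel, by decide +kernel, by decide +kernel⟩

end CfsgLib.SchurMult.GTwoThree
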