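import Cfsg.Agent.Lib.SchurMult.G2Three.Data

/-!
The torus relations in the threefold cover of `G₂(3)`.
-/

set_option autoImplicit false
set_option maxHeartbeats 0
set_option maxRecDepth 100000

namespace CfsgLib.SchurMult.GTwoThree

/-- (R3). -/
noncomputable def torusOK (r : ℕ) : Bool :=
  (List.range 2).all fun n => (List.range 2).all fun m =>
    tables.sameWord (hLetters r (n + 1) ++ hLetters r (m + 1))
      (hLetters r ((n + 1) * (m + 1)) ++ List.replicate (hTwist r (n + 1) (m + 1)) 24)

theorem torusOK0 : torusOK 0 = true := by decide +kernel

theorem torusOK1 : torusOK 1 = true := by decide +kernel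

theorem torusOK2 : torusOK 2 = true := by decide +kernel

theorem torusOK3 : torusOK 3 = true := by decide +kernel

theorem torusOK4 : torusOK 4 = true := by decide +kernel

theorem torusOK5 : torusOK 5 = true := by decide +kernel

theorem torusOK6 : torusOK 6 = true := by decide +kernel

theorem torusOK7 : torusOK 7 = true := by decide +kernel

theorem torusOK8 : torusOK 8 = true := by decide +kernel

theorem torusOK9 : torusOK 9 = true := by decide +kernel

theorem torusOK10 : torusOK 10 = true := by decide +kernel

theorem torusOK11 : torusOK 11 = true := by decide +kernel

theorem torusOK_eq : ∀ r < 12, torusOK r = true := by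
  intro r hr
  interval_cases r
  · exact torusOK0
  · exact torusOK1
  · exact torusOK2
  · exact torusOK3
  · exact torusOK4
  · exact torusOK5
  · exact torusOK6
  · exact torusOK7
  · exact torusOK8
  · exact torusOK9
  · exact torusOK10
  · exact torusOK11

end CfsgLib.SchurMult.GTwoThree
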