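import Cfsg.Agent.Lib.ChevMult.LiftsG2
import Cfsg.Agent.Lib.ChevMult.LiftsB2Small
import Cfsg.Agent.Lib.ChevMult.Rel3
import Cfsg.Agent.Lib.SteinbergPres.TrivialCenter
import Cfsg.Agent.Lib.SchurMult.Criterion
import Cfsg.Agent.S1078

/-!
The multiplier of `G₂(3)` is a quotient of the cyclic group of order three: once the lifts of the two orthogonal
root elements `x₆(1)`, `x₉(1)` commute, Steinberg's presentation lifts.
-/

set_option autoImplicit false
set_option linter.unusedSectionVars false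

namespace CfsgLib.SchurMult.GTwoThree

open Cfsg.Lie CfsgLib.Twisted CfsgLib.SteinbergPres CfsgLib.Chevalley CfsgLib.ChevMult
open scoped commutatorElement

universe u v

/-- a coroot taken at `-1` fixes `r` and moves `s` -/
def parB (r s : ℕ) : Bool :=
  (List.range 12).any fun a => decide (pairD chevG2 r a % 2 = 0) && decide (pairD chevG2 s a % 2 ≠ 0)

theorem pairsOK : ∀ r < 12, ∀ s < 12, (!(Nat.ble 6 r && Nat.blt r s) || parB r s || parB s r ||
    (Nat.beq r 6 && Nat.beq s 9) || (Nat.beq r 7 && Nat.beq s 11) || (Nat.beq r 8 && Nat.beq s 10)) = true := by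
  decide +kernel

theorem weylTransfer : sigmaG2 0 6 = 10 ∧ sigmaG2 0 9 = 8 ∧ sigmaG2 1 10 = 11 ∧ sigmaG2 1 8 = 7 := by
  decide +kernel

variable {A : Aux} {h : Full chevG2 A} {F : Type v} [Field F] [Fintype F]

theorem cast_three (hF : Fintype.card F = 3) : (3 : F) = 0 := by
  have := Nat.cast_card_eq_zero F
  rwa [hF] at this

theorem two_ne (hF : Fintype.card F = 3) : (2 : F) ≠ 0 := fun e => by
  have h3 := cast_three hF
  exact one_ne_zero (show (1 : F) = 0 by linear_combination h3 - e)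

theorem all_three (hF : Fintype.card F = 3) (x : F) : x = 0 ∨ x = 1 ∨ x = -1 := by
  have e := FiniteField.pow_card x
  rw [hF] at e
  have : x * (x - 1) * (x + 1) = 0 := by linear_combination e
  rcases mul_eq_zero.1 this with e' | e'
  · rcases mul_eq_zero.1 e' with e'' | e''
    exacts [Or.inl e'', Or.inr (Or.inl (sub_eq_zero.1 e''))]
  · exact Or.inr (Or.inr (eq_neg_of_add_eq_zero_left e'))

theorem kill_of_parB (hF : Fintype.card F = 3) {Γ : Type*} [Group Γ] {π : Γ →* ↥(chevG2.group F)} {r s : ℕ}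
    (hB : parB r s = true) : Kill h.toStd π r s ∧ Kill h.toStd π s r := by
  simp only [parB, List.any_eq_true, List.mem_range, Bool.and_eq_true, decide_eq_true_eq] at hB
  obtain ⟨a, -, hr, hs⟩ := hB
  have hm : (-1 : Fˣ) ≠ 1 := fun e => two_ne hF (by
    have := congrArg (fun u : Fˣ => (u : F)) e
    simp only [Units.val_neg, Units.val_one] at this
    linear_combination -this)
  have e1 : chi chevG2 r (coTorus chevG2 a (-1 : Fˣ)) = 1 := by
    rw [chi_coTorus]
    exact Even.neg_one_zpow (Int.even_iff.2 hr)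
  have e2 : chi chevG2 s (coTorus chevG2 a (-1 : Fˣ)) ≠ 1 := by
    rw [chi_coTorus, Odd.neg_one_zpow (Int.odd_iff.2 (Int.emod_two_ne_zero.1 hs))]
    exact hm
  exact ⟨Or.inl ⟨_, Or.inl ⟨e1, e2⟩⟩, Or.inl ⟨_, Or.inr ⟨e1, e2⟩⟩⟩

theorem comm_weyl {Γ : Type*} [Group Γ] {π : Γ →* ↥(chevG2.group F)} (E : CExt h.toStd π) {i r s : ℕ}
    (hi : i < 2) (hr : r < 12) (hs : s < 12) (hc : Comm h.toStd π r s) :
    Comm h.toStd π (sigmaG2 i r) (sigmaG2 i s) := by
  have hA := stCertG2.isAut (i := i) hi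
  obtain ⟨g, hg⟩ := E.surj (thetaGroup h (nSt chevG2 F i 1))
  have hgen : ∀ r < 12, ∀ t : F, thetaGroup h (chevG2.stGen F r t) = xg h.cert r t := fun r hr t =>
    Subtype.ext (by rw [coe_thetaGroup, theta_gen h hr]; rfl)
  have key : ∀ r < 12, ∀ t : F, π g * xg h.cert r t * (π g)⁻¹ =
      xg h.cert (sigmaG2 i r) ((etaG2 i r : F) * t) := by
    intro r hr t
    rw [hg, ← hgen r hr, ← map_inv, ← map_mul, ← map_mul, stEdgeG2 F i hi r hr, hgen _ (hA.lt r hr)]
  have back : ∀ r < 12, ∀ a : Γ, ∀ t : F, π a = xg h.cert (sigmaG2 i r) t →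
      π (g⁻¹ * a * g) = xg h.cert r ((etaG2 i r : F) * t) := by
    intro r hr a t ha
    have e := key r hr ((etaG2 i r : F) * t)
    have hsq : (etaG2 i r : F) * (etaG2 i r : F) = 1 := by
      rcases hA.sign r hr with q | q <;> simp [q]
    rw [← mul_assoc, hsq, one_mul, ← ha] at e
    rw [map_mul, map_mul, map_inv, ← e]
    group
  intro a b t u ha hb
  have e := hc _ _ _ _ (back r hr a t ha) (back s hs b u hb)
  have e' : g⁻¹ * (a * b) * g = g⁻¹ * (b * a) * g := by
    simpa [mul_assoc, Commute, SemiconjBy] using e.eq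
  exact mul_left_cancel (mul_right_cancel e')

/-- With `x₆`, `x₉` commuting upstairs there is a family of lifts. -/
theorem exists_lifts (hF : Fintype.card F = 3) {Γ : Type*} [Group Γ] {π : Γ →* ↥(chevG2.group F)}
    (E : CExt h.toStd π) (h69 : Comm h.toStd π 6 9) : ∃ X, Lifts h.toStd π X := by
  obtain ⟨w1, w2, w3, w4⟩ := weylTransfer
  have h108 : Comm h.toStd π 10 8 := w1 ▸ w2 ▸ comm_weyl (h := h) E (i := 0) (by norm_num) (by norm_num) (by norm_num) h69
  have h117 : Comm h.toStd π 11 7 := w3 ▸ w4 ▸ comm_weyl (h := h) E (i := 1) (by norm_num) (by norm_num) (by norm_num) h108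
  refine exists_lifts_of_kills (h := h) stCertG2 (stEdgeG2 F) (fun i hi r hr s hs h1 h2 t u => ?_) E
    (fun k _ => comm_self_of_three E (all_three hF) k) (fun k hk => exists_chi_of_chiB ?_ (chiG2 k hk))
    (fun r s hr hs hrs => ?_) (hmoveG2 h)
  · exact commWord_of_mapAllB (by decide +kernel) hi (stCertG2.isAut hi) hr hs h1 h2 t u
  · intro d hd hd1
    refine ⟨-1, fun e => two_ne hF ?_⟩
    rw [show d = 1 by omega, pow_one] at e
    have := congrArg (fun u : Fˣ => (u : F)) e
    simp only [Units.val_neg, Units.val_one] at this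
    linear_combination -this
  · have hB := pairsOK r hr.1 s hs.1
    have h6 : Nat.ble 6 r = true := Nat.ble_eq_true_of_le (h.pos.isPos_iff.1 hr).1
    have hlt : Nat.blt r s = true := Nat.ble_eq_true_of_le hrs
    rw [h6, hlt, Bool.and_true, Bool.not_true, Bool.false_or] at hB
    simp only [Bool.or_eq_true, Bool.and_eq_true] at hB
    rcases hB with (((e | e) | ⟨ea, eb⟩) | ⟨ea, eb⟩) | ⟨ea, eb⟩
    · exact (kill_of_parB (h := h) hF e).1
    · exact (kill_of_parB (h := h) hF e).2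
    all_goals rw [Nat.eq_of_beq_eq_true ea, Nat.eq_of_beq_eq_true eb]
    exacts [Or.inr (Or.inl h69), Or.inr (Or.inl h117.symm), Or.inr (Or.inl h108.symm)]

/-- An extension splitting over the root elements is trivial. -/
theorem ker_eq_bot (hF : Fintype.card F = 3) (h : Full chevG2 A) {Γ : Type v} [Group Γ]
    {τ : Γ →* ↥(chevG2.group F)} (E : CExt h.toStd τ) (hcom : τ.ker ≤ commutator Γ)
    (h69 : Comm h.toStd τ 6 9) : τ.ker = ⊥ := by
  obtain ⟨X, hX⟩ := exists_lifts (h := h) hF E h69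
  have hperf : commutator (chevG2.SteinbergCover F) = ⊤ := cover_perfect (by simp)
    (fun _ => ⟨-1, neg_ne_zero.2 one_ne_zero, fun e => two_ne hF (by linear_combination -e)⟩)
  obtain ⟨ψ, hψ⟩ := hX.exists_stHom (h := h) E hperf
  have hbij : Function.Bijective (thetaGroup (K := F) h) := ⟨by
    rw [← MonoidHom.ker_eq_bot_iff, ker_thetaGroup h]
    exact Cfsg.Agent.S1078.result chevG2 (by simp), thetaGroup_surjective h⟩
  let e := MulEquiv.ofBijective _ hbij
  let s : ↥(chevG2.group F) →* Γ := ψ.comp e.symm.toMonoidHom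
  have hs : ∀ y, τ (s y) = y := fun y =>
    (DFunLike.congr_fun hψ (e.symm y)).trans (e.apply_symm_apply y)
  have hle : commutator Γ ≤ s.range := by
    rw [commutator_def, Subgroup.commutator_le]
    intro a _ b _
    rw [E.comm_congr (hs (τ a)).symm (hs (τ b)).symm, ← map_commutatorElement]
    exact ⟨_, rfl⟩
  refine eq_bot_iff.2 fun k hk => ?_
  obtain ⟨y, rfl⟩ := hle (hcom hk)
  rw [MonoidHom.mem_ker, hs] at hk
  rw [Subgroup.mem_bot, hk, map_one]

/-- The kernel of every stem extension is a quotient of the cyclic group of order three. -/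
theorem exists_surjective (hF : Fintype.card F = 3) {Γ : Type v} [Group Γ]
    {σ : Γ →* ↥(chevG2.group F)} (hσ : Cfsg.IsStemExtension σ) :
    ∃ π : Multiplicative (ZMod 3) →* σ.ker, Function.Surjective π := by
  obtain ⟨A, h⟩ := exists_full (D := chevG2) (by simp)
  have E : CExt h.toStd σ := ⟨hσ.1, hσ.2.1⟩
  obtain ⟨a, ha⟩ := hσ.1 (xg h.cert 6 1)
  obtain ⟨b, hb⟩ := hσ.1 (xg h.cert 9 1)
  have hab : Commute (σ a) (σ b) := by
    rw [ha, hb]
    exact xg_commute h.toStd (by decide) (by decide) (by decide) (Or.inr (by decide)) 1 1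
  have hz : ⁅a, b⁆ ∈ σ.ker := by
    rw [MonoidHom.mem_ker, map_commutatorElement, commutatorElement_eq_one_iff_commute]
    exact hab
  have h3 : ⁅a, b⁆ ^ 3 = 1 := by
    rw [← comm_pow_left hσ.2.1 hab, commutatorElement_eq_one_iff_commute]
    refine (show Commute b (a ^ 3) from ker_comm hσ.2.1 ?_ b).symm
    rw [MonoidHom.mem_ker, map_pow, ha, pow_succ, pow_two, xg_mul, xg_mul,
      show (1 : F) + 1 + 1 = 0 by linear_combination cast_three hF, xg_zero]
  let Z : Subgroup Γ := Subgroup.zpowers ⁅a, b⁆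
  have hZ : Z ≤ σ.ker := Subgroup.zpowers_le.2 hz
  haveI : Z.Normal := ⟨fun n hn g => by
    rw [ker_comm hσ.2.1 (hZ hn) g, mul_inv_cancel_right]; exact hn⟩
  let τ : Γ ⧸ Z →* ↥(chevG2.group F) := QuotientGroup.lift Z σ hZ
  have hmk : Function.Surjective (QuotientGroup.mk' Z) := QuotientGroup.mk'_surjective Z
  have hker : ∀ q ∈ τ.ker, ∃ k ∈ σ.ker, QuotientGroup.mk' Z k = q := fun q hq => by
    obtain ⟨k, rfl⟩ := hmk q
    exact ⟨k, hq, rfl⟩
  have E' : CExt h.toStd τ := ⟨fun y => (hσ.1 y).elim fun x hx => ⟨QuotientGroup.mk' Z x, hx⟩, fun q hq => by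
    obtain ⟨k, hk, rfl⟩ := hker q hq
    refine Subgroup.mem_center_iff.2 fun g => ?_
    obtain ⟨g, rfl⟩ := hmk g
    rw [← map_mul, ← map_mul, ker_comm hσ.2.1 hk g]⟩
  have hcom : τ.ker ≤ commutator (Γ ⧸ Z) := fun q hq => by
    obtain ⟨k, hk, rfl⟩ := hker q hq
    rw [commutator_def, ← Subgroup.map_top_of_surjective _ hmk, ← Subgroup.map_commutator]
    exact ⟨k, hσ.2.2 hk, rfl⟩
  have hcomm : Commute (QuotientGroup.mk' Z a) (QuotientGroup.mk' Z b) := by
    rw [← commutatorElement_eq_one_iff_commute, ← map_commutatorElement]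
    exact (QuotientGroup.eq_one_iff _).2 (Subgroup.mem_zpowers _)
  have h69 : Comm h.toStd τ 6 9 := by
    have key : ∀ (r : ℕ) (g : Γ), σ g = xg h.cert r 1 → ∀ x t, τ x = xg h.cert r t →
        ∃ n : ℤ, ∃ k, τ k = 1 ∧ x = QuotientGroup.mk' Z g ^ n * k := by
      intro r g hg x t hx
      have hg' : τ (QuotientGroup.mk' Z g) = xg h.cert r 1 := hg
      obtain ⟨n, hn⟩ : ∃ n : ℤ, τ (QuotientGroup.mk' Z g ^ n) = xg h.cert r t := by
        rcases all_three hF t with rfl | rfl | rfl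
        · exact ⟨0, by simp [xg_zero]⟩
        · exact ⟨1, by rw [zpow_one, hg']⟩
        · exact ⟨-1, by rw [zpow_neg, zpow_one, map_inv, hg', xg_inv]⟩
      exact ⟨n, (QuotientGroup.mk' Z g ^ n)⁻¹ * x, by rw [map_mul, map_inv, hn, hx, inv_mul_cancel], by group⟩
    intro x y t u hx hy
    obtain ⟨n, k, hk, rfl⟩ := key 6 a ha x t hx
    obtain ⟨m, l, hl, rfl⟩ := key 9 b hb y u hy
    exact ((hcomm.zpow_zpow n m).mul_right (E'.mul_comm_ker hl _)).mul_left
      (Commute.symm (E'.mul_comm_ker hk _))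
  have hbot := ker_eq_bot hF h E' hcom h69
  let g : σ.ker := ⟨⁅a, b⁆, hz⟩
  haveI : IsMulCommutative σ.ker :=
    ⟨⟨fun x y => Subtype.ext (Subgroup.mem_center_iff.1 (hσ.2.1 y.2) (x : Γ))⟩⟩
  have hg3 : g ^ 3 = 1 := Subtype.ext (by simpa [g] using h3)
  refine ⟨AddMonoidHom.toMultiplicativeLeft
    (ZMod.lift 3 ⟨zmultiplesHom (Additive σ.ker) (Additive.ofMul g), ?_⟩), ?_⟩
  · apply Additive.toMul.injective
    simpa [zmultiplesHom_apply] using hg3
  · intro x
    have hx : QuotientGroup.mk' Z (x : Γ) ∈ τ.ker := x.2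
    rw [hbot, Subgroup.mem_bot] at hx
    obtain ⟨j, hj⟩ := Subgroup.mem_zpowers_iff.1 ((QuotientGroup.eq_one_iff _).1 hx)
    refine ⟨Multiplicative.ofAdd (j : ZMod 3), ?_⟩
    simp only [AddMonoidHom.coe_toMultiplicativeLeft, zmultiplesHom_apply]
    refine Subtype.ext ?_
    simpa [g] using hj

end CfsgLib.SchurMult.GTwoThree
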