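import Cfsg.Agent.Lib.SchurMult.G2Three.CertA
import Cfsg.Agent.Lib.SchurMult.G2Three.CertB
import Cfsg.Agent.Lib.SchurMult.G2Three.CertC
import Cfsg.Agent.Lib.SchurMult.G2Three.CertD
import Cfsg.Agent.Lib.SchurMult.G2Three.CertT
import Cfsg.Agent.Lib.SchurMult.G2Three.Upper

/-!
The threefold cover of `G₂(3)`: the group generated by the pairs of a root element and its table, mapping to
Steinberg's group up to the central element.
-/

set_option autoImplicit false
set_option linter.unusedSectionVars false
set_option linter.style.haveILetI false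
set_option maxRecDepth 100000

namespace CfsgLib.SchurMult.GTwoThree

noncomputable section

open Cfsg.Lie CfsgLib.Chevalley CfsgLib.ChevMult CfsgLib.SteinbergPres
open CfsgLib.SporRecognition.CosetCert (allBelow_spec)
open CfsgLib.SchurMult (lprod lprod_append)
open scoped commutatorElement

attribute [local irreducible] tables relTwist hTwist

universe v

theorem base_facts : (∀ k < 13, (tables.sameWord [2 * k, 2 * k + 1] [] = true ∧
      tables.sameWord [2 * k + 1, 2 * k] [] = true) ∧
      ∀ u < 1053, tables.img (2 * k) u < 1053 ∧ tables.img (2 * k + 1) u < 1053) ∧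
    (∀ i < 24, tables.sameWord [24, i] [i, 24] = true) ∧ tables.sameWord [24, 24, 24] [] = true ∧
    tables.img 24 0 ≠ 0 ∧ tables.sameWord [12, 18, 13, 19] (List.replicate 2 24) = true := by
  have h := baseOK_eq
  simp only [baseOK, List.all_eq_true, List.mem_range, Bool.and_eq_true, Bool.not_eq_true'] at h
  obtain ⟨⟨⟨⟨h1, h2⟩, h3⟩, h4⟩, h5⟩ := h
  refine ⟨fun k hk => ⟨(h1 k hk).1, fun u hu => ?_⟩, h2, h3, fun e => ?_, h5⟩
  · have := allBelow_spec (h1 k hk).2 u hu
    simpa [Nat.blt_eq] using this
  · rw [e] at h4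
    exact Bool.false_ne_true h4.symm

theorem pair_inv {k : ℕ} (hk : k < 13) (u : ℕ) (hu : u < 1053) :
    tables.imgW [2 * k, 2 * k + 1] u = u ∧ tables.imgW [2 * k + 1, 2 * k] u = u := by
  obtain ⟨⟨h1, h2⟩, -⟩ := base_facts.1 k hk
  simp only [PermCert.Tables.sameWord, Bool.and_eq_true] at h1 h2
  have hn : tables.n = 1053 := by unfold tables; rfl
  exact ⟨Nat.eq_of_beq_eq_true (allBelow_spec h1.2 u (hn ▸ hu)),
    Nat.eq_of_beq_eq_true (allBelow_spec h2.2 u (hn ▸ hu))⟩

/-- A listed element as a permutation. -/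
def permEl (k : ℕ) (hk : k < 13) : Equiv.Perm (Fin 1053) where
  toFun u := ⟨tables.img (2 * k) u, ((base_facts.1 k hk).2 u u.2).1⟩
  invFun u := ⟨tables.img (2 * k + 1) u, ((base_facts.1 k hk).2 u u.2).2⟩
  left_inv u := Fin.ext (pair_inv hk u u.2).2
  right_inv u := Fin.ext (pair_inv hk u u.2).1

/-- The listed elements. -/
def el (i : ℕ) : Equiv.Perm (Fin 1053) :=
  if h : i / 2 < 13 then (if i % 2 = 0 then permEl (i / 2) h else (permEl (i / 2) h).symm) else 1

theorem length_ts : tables.ts.length = 26 := by unfold tables; rfl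

theorem realises : tables.Realises (MonoidHom.id (Equiv.Perm (Fin 1053))) el where
  deg := by unfold tables; rfl
  inj := Function.injective_id
  img i hi u := by
    rw [length_ts] at hi
    rw [MonoidHom.id_apply, el, dif_pos (by omega)]
    by_cases h : i % 2 = 0
    · rw [if_pos h]
      show tables.img (2 * (i / 2)) u = _
      rw [show 2 * (i / 2) = i by omega]
    · rw [if_neg h]
      show tables.img (2 * (i / 2) + 1) u = _
      rw [show 2 * (i / 2) + 1 = i by omega]

theorem eq_of_same {w w' : List ℕ} (h : tables.sameWord w w' = true) : lprod el w = lprod el w' :=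
  realises.eq_of_sameWord h

theorem lprod_replicate (i k : ℕ) : lprod el (List.replicate k i) = el i ^ k :=
  PermCert.Tables.lprod_rep el i k

theorem zeta_pow_three : el 24 ^ 3 = 1 := by
  rw [← lprod_replicate]
  exact eq_of_same base_facts.2.2.1

theorem zeta_ne_one : el 24 ≠ 1 := fun e => base_facts.2.2.2.1 (by
  have h := realises.img 24 (by rw [length_ts]; norm_num) ⟨0, by norm_num⟩
  rw [MonoidHom.id_apply, e] at h
  exact h.symm)

theorem zeta_comm_el {i : ℕ} (hi : i < 24) : Commute (el 24) (el i) := by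
  have h := eq_of_same (base_facts.2.1 i hi)
  simp only [lprod, mul_one] at h
  exact h

theorem inv_el {k : ℕ} (hk : k < 13) : el (2 * k + 1) = (el (2 * k))⁻¹ := by
  have h1 : (2 * k + 1) / 2 = k := by omega
  have h2 : 2 * k / 2 = k := by omega
  have h3 : (2 * k + 1) % 2 ≠ 0 := by omega
  have h4 : 2 * k % 2 = 0 := by omega
  simp only [el, h1, h2, if_neg h3, if_pos h4, dif_pos hk]
  rfl

theorem zeta_mem_comm : ⁅el 12, el 18⁆ ^ 2 = el 24 := by
  have h := eq_of_same base_facts.2.2.2.2
  rw [lprod_replicate] at h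
  have h' : ⁅el 12, el 18⁆ = el 24 ^ 2 := by
    rw [commutatorElement_def, ← inv_el (k := 6) (by norm_num), ← inv_el (k := 9) (by norm_num)]
    simpa [lprod, mul_assoc] using h
  rw [h', ← pow_mul, show 2 * 2 = 3 + 1 from rfl, pow_succ, zeta_pow_three, one_mul]

/-- The table of a root element. -/
def L (r n : ℕ) : Equiv.Perm (Fin 1053) := lprod el (letter r n)

theorem letter_mod (r n : ℕ) : letter r (n % 3) = letter r n := by simp [letter]

theorem letter_lt {r n : ℕ} (hr : r < 12) : ∀ i ∈ letter r n, i < 24 := by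
  intro i hi
  unfold letter at hi
  split_ifs at hi <;> simp at hi <;> omega

theorem L_mod (r n : ℕ) : L r (n % 3) = L r n := by rw [L, letter_mod]; rfl

theorem L_add {r : ℕ} (hr : r < 12) (n m : ℕ) : L r n * L r m = L r (n + m) := by
  have h := addOK_eq
  simp only [addOK, List.all_eq_true, List.mem_range] at h
  have e := eq_of_same (h r hr (n % 3) (Nat.mod_lt _ (by norm_num)) (m % 3) (Nat.mod_lt _ (by norm_num)))
  rw [lprod_append, letter_mod, letter_mod, ← letter_mod r (n % 3 + m % 3), ← Nat.add_mod, letter_mod] at e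
  exact e

theorem L_zero (r : ℕ) : L r 0 = 1 := rfl

theorem L_inv {r : ℕ} (hr : r < 12) (n : ℕ) : (L r n)⁻¹ = L r (2 * n) := by
  refine inv_eq_of_mul_eq_one_right ?_
  rw [L_add hr, ← L_mod, show (n + 2 * n) % 3 = 0 by omega, L_zero]

theorem zeta_comm_lprod : ∀ {w : List ℕ}, (∀ i ∈ w, i < 24) → Commute (el 24) (lprod el w)
  | [], _ => Commute.one_right _
  | i :: w, h => (zeta_comm_el (h i (List.mem_cons_self ..))).mul_right
      (zeta_comm_lprod fun j hj => h j (List.mem_cons_of_mem _ hj))

theorem defect_mem {A B : Equiv.Perm (Fin 1053)} (c : ℕ) (h : A = B * el 24 ^ c) (hB : Commute (el 24) B) :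
    A * B⁻¹ ∈ Subgroup.zpowers (el 24) := by
  refine ⟨(c : ℤ), ?_⟩
  rw [h, (hB.pow_left c).eq.symm, mul_inv_cancel_right]
  exact zpow_natCast _ _

theorem comm_rel {r s : ℕ} (hr : r < 12) (hs : s < 12) (h1 : s ≠ r) (h2 : s ≠ chevG2.neg r) {n m : ℕ}
    (hn : n < 3) (hm : m < 3) :
    lprod el (lhs r s n m) = lprod el (rhs r s n m) * el 24 ^ relTwist r s n m := by
  have hall : ∀ r < 12, commOK r = true := by
    intro r hr
    obtain ⟨a, b, c⟩ := commOKA
    obtain ⟨d, e, f⟩ := commOKB
    obtain ⟨g, h, i⟩ := commOKC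
    obtain ⟨j, k, l⟩ := commOKD
    interval_cases r <;> assumption
  have h := hall r hr
  simp only [commOK, List.all_eq_true, List.mem_range, Bool.or_eq_true] at h
  have e := ((h s hs).resolve_left (by rintro (e | e) <;> simp_all)) n hn m hm
  have e' := eq_of_same e
  rwa [lprod_append, lprod_replicate] at e'

theorem torus_rel {r n m : ℕ} (hr : r < 12) (hn : n < 2) (hm : m < 2) :
    lprod el (hLetters r (n + 1)) * lprod el (hLetters r (m + 1)) =
      lprod el (hLetters r ((n + 1) * (m + 1))) * el 24 ^ hTwist r (n + 1) (m + 1) := by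
  have h := torusOK_eq r hr
  simp only [torusOK, List.all_eq_true, List.mem_range] at h
  have e := eq_of_same (h n hn m hm)
  rwa [lprod_append, lprod_append, lprod_replicate] at e

/-! ### The field of three elements -/

section field

variable {F : Type v} [Field F] [Fintype F]

open Classical in
/-- The representative of an element. -/
def toN (x : F) : ℕ := if x = 0 then 0 else if x = 1 then 1 else 2

theorem cast_toN (hF : Fintype.card F = 3) (x : F) : ((toN x : ℕ) : F) = x := by
  unfold toN
  rcases all_three hF x with rfl | rfl | rfl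
  · simp
  · simp
  · rw [if_neg (neg_ne_zero.2 one_ne_zero), if_neg fun e => two_ne hF (by linear_combination -e)]
    push_cast
    linear_combination cast_three hF

theorem toN_lt (x : F) : toN x < 3 := by
  unfold toN
  split_ifs <;> norm_num

theorem toN_cast (hF : Fintype.card F = 3) {k : ℕ} (hk : k < 3) : toN ((k : ℕ) : F) = k := by
  unfold toN
  interval_cases k
  · simp
  · simp
  · rw [Nat.cast_ofNat, if_neg (two_ne hF), if_neg fun e => one_ne_zero (α := F) (by linear_combination e)]

theorem cast_res (hF : Fintype.card F = 3) (z : ℤ) : ((res z : ℕ) : F) = (z : F) := by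
  have e : ((res z : ℕ) : ℤ) = z - 3 * (z / 3) := by
    rw [res, Int.toNat_of_nonneg (Int.emod_nonneg _ (by norm_num))]
    omega
  rw [← Int.cast_natCast, e]
  push_cast
  rw [cast_three hF, zero_mul, sub_zero]

theorem toN_int (hF : Fintype.card F = 3) (z : ℤ) : toN (z : F) = res z := by
  rw [← cast_res hF z, toN_cast hF]
  have : z % 3 < 3 := Int.emod_lt_of_pos z (by norm_num)
  unfold res
  omega

theorem L_nat (hF : Fintype.card F = 3) (r n : ℕ) : L r (toN ((n : ℕ) : F)) = L r n := by
  rw [← L_mod r n, ← Int.cast_natCast, toN_int hF]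
  congr 1

end field

/-! ### The group of pairs -/

variable {A : Aux} {F : Type v} [Field F] [Fintype F] (h : Full chevG2 A)

/-- A root element with its table. -/
def pr (r : ℕ) (t : F) : ↥(chevG2.group F) × Equiv.Perm (Fin 1053) := (xg h.cert r t, L r (toN t))

/-- The group of the pairs. -/
def Delta : Subgroup (↥(chevG2.group F) × Equiv.Perm (Fin 1053)) :=
  Subgroup.closure {p | ∃ r < 12, ∃ t : F, p = pr h r t}

/-- The root element in the group of the pairs. -/
def gen (r : ℕ) (t : F) : ↥(Delta (F := F) h) :=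
  if hr : r < 12 then ⟨pr h r t, Subgroup.subset_closure ⟨r, hr, t, rfl⟩⟩ else 1

theorem coe_gen {r : ℕ} (hr : r < 12) (t : F) :
    (gen h r t : ↥(chevG2.group F) × Equiv.Perm (Fin 1053)) = pr h r t := by
  rw [gen, dif_pos hr]

/-- The map from the free group. -/
def toDelta : FreeGroup (Fin chevG2.nroots × F) →* ↥(Delta (F := F) h) := FreeGroup.lift fun p => gen h p.1 p.2

theorem toDelta_stX {r : ℕ} (hr : r < 12) (t : F) : toDelta h (chevG2.stX r t) = gen h r t := by
  have hr' : r < chevG2.nroots := hr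
  rw [toDelta, ChevalleyDatum.stX, dif_pos hr', FreeGroup.lift_apply_of]

/-- The table component of the map from the free group. -/
def toPerm : FreeGroup (Fin chevG2.nroots × F) →* Equiv.Perm (Fin 1053) :=
  (MonoidHom.snd _ _).comp ((Delta (F := F) h).subtype.comp (toDelta h))

theorem toPerm_stX {r : ℕ} (hr : r < 12) (t : F) : toPerm h (chevG2.stX r t) = L r (toN t) := by
  show ((toDelta h (chevG2.stX r t) : ↥(chevG2.group F) × Equiv.Perm (Fin 1053))).2 = _
  rw [toDelta_stX h hr, coe_gen h hr]
  rfl

theorem toPerm_stWord (l : List (ℕ × F)) (hl : ∀ p ∈ l, p.1 < 12) :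
    toPerm h (chevG2.stWord l) = (l.map fun p => L p.1 (toN p.2)).prod := by
  simp only [ChevalleyDatum.stWord, map_list_prod, List.map_map]
  exact congrArg List.prod (List.map_congr_left fun p hp => toPerm_stX h (hl p hp) _)

variable {h}

theorem lprod_flatMap {α : Type*} (l : List α) (f : α → List ℕ) :
    lprod el (l.flatMap f) = (l.map fun a => lprod el (f a)).prod := by
  induction l with
  | nil => rfl
  | cons a l ih => rw [List.flatMap_cons, lprod_append, ih, List.map_cons, List.prod_cons]

theorem commTerms_lt' (h : Full chevG2 A) {r s : ℕ} (hr : r < 12) (hs : s < 12) {c : ℕ × ℤ × ℕ × ℕ}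
    (hc : c ∈ chevG2.commTerms r s) : c.1 < 12 := commTerms_lt h hr hs hc

variable (h)

theorem rel_mem (hF : Fintype.card F = 3) :
    ∀ x ∈ chevG2.steinbergRels F, toPerm h x ∈ Subgroup.zpowers (el 24) := by
  have hneg : ∀ r < 12, chevG2.neg r < 12 := fun r hr => h.cert.wf.neg_lt r hr
  rintro x ((⟨r, t, u, hr, rfl⟩ | ⟨r, s, t, u, hr, hs, h1, h2, rfl⟩) | ⟨r, t, u, hr, ht, hu, rfl⟩)
  · have hr' : r < 12 := hr
    rw [map_mul, map_mul, map_inv, toPerm_stX h hr', toPerm_stX h hr', toPerm_stX h hr', L_add hr']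
    have e : L r (toN (t + u)) = L r (toN t + toN u) := by
      rw [← L_nat hF r (toN t + toN u), Nat.cast_add, cast_toN hF, cast_toN hF]
    rw [e, mul_inv_cancel]
    exact one_mem _
  · have hr' : r < 12 := hr
    have hs' : s < 12 := hs
    have hw : toPerm h (chevG2.stWord (chevG2.commWord F r s t u)) = lprod el (rhs r s (toN t) (toN u)) := by
      rw [toPerm_stWord h _ fun p hp => by
        obtain ⟨c, hc, rfl⟩ := List.mem_map.1 hp
        exact commTerms_lt' h hr' hs' hc]
      rw [rhs, lprod_flatMap, ChevalleyDatum.commWord, List.map_map]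
      refine congrArg List.prod (List.map_congr_left fun c _ => ?_)
      show L c.1 _ = L c.1 _
      rw [← toN_int (F := F) hF]
      push_cast
      rw [cast_toN hF, cast_toN hF]
    have e : toPerm h ((chevG2.stX s u)⁻¹ * (chevG2.stX r t)⁻¹ * chevG2.stX s u * chevG2.stX r t) =
        lprod el (lhs r s (toN t) (toN u)) := by
      rw [map_mul, map_mul, map_mul, map_inv, map_inv, toPerm_stX h hr', toPerm_stX h hs', L_inv hr',
        L_inv hs', lhs, lprod_append, lprod_append, lprod_append]
      rfl
    rw [map_mul, map_inv, hw, e]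
    refine defect_mem _ (comm_rel hr' hs' h1 h2 (toN_lt t) (toN_lt u)) (zeta_comm_lprod fun i hi => ?_)
    obtain ⟨c, hc, hi⟩ := List.mem_flatMap.1 hi
    exact letter_lt (commTerms_lt' h hr' hs' hc) i hi
  · have hr' : r < 12 := hr
    have inv_self : ∀ v : F, v ≠ 0 → v⁻¹ = v := fun v hv => by
      rcases all_three hF v with rfl | rfl | rfl
      · exact absurd rfl hv
      · exact inv_one
      · simp
    have hH : ∀ v : F, v ≠ 0 → ∀ n : ℕ, (n : F) = v →
        toPerm h (chevG2.stH r v) = lprod el (hLetters r n) := by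
      intro v hv n hn
      rw [ChevalleyDatum.stH, toPerm_stWord h _ fun p hp => by
        simp [ChevalleyDatum.hWord, ChevalleyDatum.nWord] at hp
        rcases hp with rfl | rfl | rfl | rfl | rfl | rfl <;> first | exact hr' | exact hneg r hr']
      have a1 : L r (toN v) = L r n := by rw [← hn, L_nat hF]
      have a2 : L (chevG2.neg r) (toN (-v⁻¹)) = L (chevG2.neg r) (2 * n) := by
        rw [inv_self v hv, ← hn, ← L_nat hF (chevG2.neg r) (2 * n)]
        congr 2
        push_cast
        linear_combination -((n : F) * cast_three hF)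
      have a3 : L r (toN (-1 : F)) = L r 2 := by
        rw [← L_nat hF r 2]
        congr 2
        push_cast
        linear_combination -(cast_three hF)
      have a4 : L (chevG2.neg r) (toN (-(-1 : F)⁻¹)) = L (chevG2.neg r) 1 := by
        rw [← L_nat hF (chevG2.neg r) 1]
        simp
      simp only [ChevalleyDatum.hWord, ChevalleyDatum.nWord, List.cons_append, List.nil_append, List.map_cons,
        List.map_nil, List.prod_cons, List.prod_nil, a1, a2, a3, a4, mul_one, hLetters, lprod_append]
      simp only [L, mul_assoc]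
    have pos : ∀ v : F, v ≠ 0 → ∃ n < 2, ((n + 1 : ℕ) : F) = v := fun v hv => by
      rcases all_three hF v with rfl | rfl | rfl
      · exact absurd rfl hv
      · exact ⟨0, by norm_num, by simp⟩
      · exact ⟨1, by norm_num, by push_cast; linear_combination cast_three hF⟩
    obtain ⟨n, hn, en⟩ := pos t ht
    obtain ⟨m, hm, em⟩ := pos u hu
    rw [map_mul, map_mul, map_inv, hH t ht _ en, hH u hu _ em,
      hH (t * u) (mul_ne_zero ht hu) ((n + 1) * (m + 1)) (by rw [Nat.cast_mul, en, em])]
    refine defect_mem _ (torus_rel hr' hn hm) (zeta_comm_lprod fun i hi => ?_)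
    simp only [hLetters, List.mem_append] at hi
    rcases hi with ((hi | hi) | hi) | ((hi | hi) | hi) <;>
      first | exact letter_lt hr' i hi | exact letter_lt (hneg r hr') i hi

/-- A stem extension of `G₂(3)` with kernel of order three. -/
theorem exists_stem (hF : Fintype.card F = 3) :
    ∃ (Γ : Type v) (_ : Group Γ) (_ : Finite Γ) (σ : Γ →* ↥(chevG2.group F)),
      Cfsg.IsStemExtension σ ∧ Nonempty (σ.ker ≃* Multiplicative (ZMod 3)) := by
  obtain ⟨A, h⟩ := exists_full (D := chevG2) (by simp)
  let Δ := Delta (F := F) h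
  let fst : ↥Δ →* ↥(chevG2.group F) := (MonoidHom.fst _ _).comp Δ.subtype
  have hfst : ∀ r < 12, ∀ t : F, fst (gen h r t) = xg h.cert r t := fun r hr t => by
    show ((gen h r t : ↥(chevG2.group F) × Equiv.Perm (Fin 1053))).1 = _
    rw [coe_gen h hr]
    rfl
  have hsurj : Function.Surjective fst := by
    intro g
    refine (Subgroup.closure_le (K := fst.range) |>.2 ?_) (mem_closure_xg h.cert g)
    rintro _ ⟨r, t, rfl⟩
    by_cases hr : r < 12
    · exact ⟨gen h r t, hfst r hr t⟩
    · refine ⟨1, ?_⟩
      rw [map_one]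
      refine Subtype.ext (Units.ext ?_)
      rw [coe_xg, coe_xG]
      have hr' : ¬ r < chevG2.nroots := hr
      simp [ChevalleyDatum.x, hr']
  -- the central element
  have hgy : (⁅gen h 6 (1 : F), gen h 9 (1 : F)⁆ ^ 2 : ↥Δ).1 = (1, el 24) := by
    have e : ∀ r < 12, L r (toN (1 : F)) = el (2 * r) := fun r _ => by
      simp [L, toN, letter, lprod]
    rw [Subgroup.coe_pow, show ((⁅gen h 6 (1 : F), gen h 9 (1 : F)⁆ : ↥Δ) : _ × _) =
      ⁅pr h 6 (1 : F), pr h 9 (1 : F)⁆ by
        rw [← coe_gen h (show 6 < 12 by norm_num), ← coe_gen h (show 9 < 12 by norm_num)]; rfl]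
    refine Prod.ext ?_ ?_
    · show ⁅xg h.cert 6 (1 : F), xg h.cert 9 (1 : F)⁆ ^ 2 = 1
      rw [commutatorElement_eq_one_iff_commute.2
        (xg_commute h.toStd (by decide) (by decide) (by decide) (Or.inr (by decide)) 1 1), one_pow]
    · show ⁅L 6 (toN (1 : F)), L 9 (toN (1 : F))⁆ ^ 2 = el 24
      rw [e 6 (by norm_num), e 9 (by norm_num)]
      exact zeta_mem_comm
  set z : ↥Δ := ⁅gen h 6 (1 : F), gen h 9 (1 : F)⁆ ^ 2 with hzdef
  have hzcomm : z ∈ commutator ↥Δ :=
    pow_mem (Subgroup.commutator_mem_commutator (Subgroup.mem_top _) (Subgroup.mem_top _)) 2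
  have hzc : ∀ d : ↥Δ, d * z = z * d := by
    rintro ⟨p, hp⟩
    refine Subtype.ext ?_
    show p * z.1 = z.1 * p
    rw [hgy]
    have : Commute p.2 (el 24) := by
      induction hp using Subgroup.closure_induction with
      | mem p hp =>
        obtain ⟨r, hr, t, rfl⟩ := hp
        exact (zeta_comm_lprod (letter_lt hr)).symm
      | one => exact Commute.one_left _
      | mul a b _ _ ha hb => exact ha.mul_left hb
      | inv a _ ha => exact ha.inv_left
    exact Prod.ext (by simp) (by simpa using this.eq)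
  have hz3 : z ^ 3 = 1 := Subtype.ext (by
    rw [Subgroup.coe_pow, hgy, Subgroup.coe_one]
    exact Prod.ext (by simp) (by simpa using zeta_pow_three))
  have hz1 : z ≠ 1 := fun e => zeta_ne_one (by
    have := congrArg (fun d : ↥Δ => d.1.2) e
    simpa [hgy] using this)
  let Z : Subgroup ↥Δ := Subgroup.zpowers z
  have hZc : Z ≤ Subgroup.center ↥Δ := Subgroup.zpowers_le.2 (Subgroup.mem_center_iff.2 hzc)
  haveI : Z.Normal := ⟨fun n hn g => by
    rw [Subgroup.mem_center_iff.1 (hZc hn) g, mul_inv_cancel_right]; exact hn⟩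
  have hlift : fst.comp (toDelta h) = (thetaGroup h).comp (PresentedGroup.mk (chevG2.steinbergRels F)) := by
    refine FreeGroup.ext_hom _ _ fun p => ?_
    rw [MonoidHom.comp_apply, toDelta, FreeGroup.lift_apply_of]
    refine (hfst _ p.1.2 p.2).trans (Subtype.ext ?_)
    rw [MonoidHom.comp_apply, coe_thetaGroup, coe_xg, ← theta_gen h p.1.2]
    simp [ChevalleyDatum.stGen, ChevalleyDatum.stX]
  have hrel : ∀ x ∈ chevG2.steinbergRels F, FreeGroup.lift (fun p : Fin chevG2.nroots × F =>
      QuotientGroup.mk' Z (gen h p.1 p.2)) x = 1 := by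
    intro x hx
    have e : FreeGroup.lift (fun p : Fin chevG2.nroots × F => QuotientGroup.mk' Z (gen h p.1 p.2)) =
        (QuotientGroup.mk' Z).comp (toDelta h) :=
      FreeGroup.ext_hom _ _ fun p => by
        rw [FreeGroup.lift_apply_of, MonoidHom.comp_apply, toDelta, FreeGroup.lift_apply_of]
    rw [e, MonoidHom.comp_apply]
    refine (QuotientGroup.eq_one_iff _).2 ?_
    obtain ⟨k, hk⟩ := Subgroup.mem_zpowers_iff.1 (rel_mem h hF x hx)
    refine ⟨k, Subtype.ext ?_⟩
    show (z ^ k : ↥Δ).1 = _
    rw [SubgroupClass.coe_zpow, hgy]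
    refine Prod.ext ?_ ?_
    · show (1 : ↥(chevG2.group F)) ^ k = fst (toDelta h x)
      rw [one_zpow, show fst (toDelta h x) = _ from DFunLike.congr_fun hlift x, MonoidHom.comp_apply,
        PresentedGroup.one_of_mem hx, map_one]
    · show el 24 ^ k = toPerm h x
      exact hk
  let ψ : chevG2.SteinbergGroup F →* ↥Δ ⧸ Z := PresentedGroup.toGroup hrel
  have hψ : Function.Surjective ψ := by
    rw [← MonoidHom.range_eq_top, eq_top_iff]
    rintro q -
    obtain ⟨⟨p, hp⟩, rfl⟩ := QuotientGroup.mk'_surjective Z q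
    induction hp using Subgroup.closure_induction with
    | mem p hp =>
      obtain ⟨r, hr, t, rfl⟩ := hp
      refine ⟨PresentedGroup.of (⟨r, hr⟩, t), ?_⟩
      rw [PresentedGroup.toGroup.of]
      exact congrArg _ (Subtype.ext (coe_gen h hr t))
    | one => exact one_mem _
    | mul a b ha hb iha ihb =>
      have : (⟨a * b, mul_mem ha hb⟩ : ↥Δ) = ⟨a, ha⟩ * ⟨b, hb⟩ := rfl
      rw [this, map_mul]
      exact mul_mem iha ihb
    | inv a ha iha =>
      have : (⟨a⁻¹, inv_mem ha⟩ : ↥Δ) = (⟨a, ha⟩ : ↥Δ)⁻¹ := rfl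
      rw [this, map_inv]
      exact inv_mem iha
  have hker : fst.ker = Z := by
    refine le_antisymm (fun d hd => ?_) ?_
    · obtain ⟨g, hg⟩ := hψ (QuotientGroup.mk' Z d)
      have hπ : (QuotientGroup.lift Z fst (Subgroup.zpowers_le.2 (MonoidHom.mem_ker.2 (by
          show z.1.1 = 1
          rw [hgy])))).comp ψ = thetaGroup h := by
        refine PresentedGroup.ext fun p => ?_
        rw [MonoidHom.comp_apply, PresentedGroup.toGroup.of]
        have e := DFunLike.congr_fun hlift (FreeGroup.of p)
        rw [MonoidHom.comp_apply, toDelta, FreeGroup.lift_apply_of] at e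
        exact e
      have hg1 : thetaGroup h g = 1 := by
        rw [← hπ, MonoidHom.comp_apply, hg]
        exact hd
      have : g = 1 := by
        have hg2 : g ∈ (thetaGroup (K := F) h).ker := hg1
        rw [ker_thetaGroup h, Cfsg.Agent.S1078.result chevG2 (by simp)] at hg2
        exact hg2
      rw [this, map_one] at hg
      exact (QuotientGroup.eq_one_iff _).1 hg.symm
    · refine Subgroup.zpowers_le.2 (MonoidHom.mem_ker.2 ?_)
      show z.1.1 = 1
      rw [hgy]
  refine ⟨↥Δ, inferInstance, inferInstance, fst, ⟨hsurj, hker ▸ hZc,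
    hker ▸ Subgroup.zpowers_le.2 hzcomm⟩, ?_⟩
  have hcard : Nat.card fst.ker = 3 := by
    rw [hker, Nat.card_zpowers, orderOf_eq_prime hz3 hz1]
  haveI : Fact (Nat.Prime 3) := ⟨Nat.prime_three⟩
  exact ⟨mulEquivOfPrimeCardEq (p := 3) hcard (by simp)⟩

end

end CfsgLib.SchurMult.GTwoThree
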